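import Cfsg.Agent.Lib.ToddCox.M21T.P0
set_option autoImplicit false
set_option maxRecDepth 100000
namespace Cfsg.Agent.Lib.ToddCox.M21T
theorem covered : Covered Eo inv W isH 4203 9626 := (Covered.trans (Covered.trans c0 c1) (Covered.trans c2 c3))
theorem links : LinksOK Eo cF (2 * nEv) N ys 0 56 := (LinksOK.trans k0 k1)
theorem defs : ∀ c, c < nDef → chkDef Eo inv c = true := defs_of_bits 4203 13 1 (by norm_num) (by
  intro j hj
  interval_cases j
  · exact d0
  )
theorem words : ∀ j, j < nW → wordsOK W (relR Rb inv) inv sp j = true := allBelow_spec (by norm_num [nW]) wordsGood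
end Cfsg.Agent.Lib.ToddCox.M21T
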