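import Cfsg.Agent.Lib.ToddCox.Rep
set_option autoImplicit false
set_option maxRecDepth 100000
namespace Cfsg.Agent.Lib.ToddCox.M21T
def T_0 : ℕ := 0xdc0036000c40032000c00034000d40033000b8002f00088002b000b0001d000a400240009800270009400280004c002d00048001b00054001e000a8000e0008000160005c001100064001a0007c00090008c002100060000a0003c001c00014000b0003000100005000030001c0004000340006000200001000080000
def T_1 : ℕ := 0xcc0035000d80030000dc0032000bc0034000c4002e000a0001f000ac002100090002d000780018000540029000800022000a80023000b0002700074001700034000f00030002600070000900094001400020000700044000600068000a0006c001900010000e00058001300048001000008000b0000400050000c0000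
def T_2 : ℕ := 0xd80037000d00035000c00031000c80033000bc002e00084002800090001f000a4002c00064001700094002b0008c0012000b40011000a8000f00054000d00060000c0009c001b00098000b0007400080004c002200080000a00078000500070001a0005800100000c00140001c0002000380001000240006000100000
def T_3 : ℕ := 0xdc0031000d40033000d0002f000d8002e000c80030000a8002c00078002d0006c00190008c00210006800140009c001c00098002000040002b000380022000a40025000a0000b00024001600020002400048001300018001f00014001d0003400040006000030005c00150000800110003c000c000280007000040000
def T_4 : ℕ := 0xdc002a000d40008000540021000b4000f000980005000c4000d0002c003600038001900030002f000880024000100025000c800200007c00180006c001a00074001c000a0001e0001c0016000cc0014000480013000280010000c00029000b00027000ac00110000800340005c0003000b80023000180009000000001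
end Cfsg.Agent.Lib.ToddCox.M21T
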